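-- Chain check for M11C, part L1C0.
import Cfsg.Agent.Lib.Compute.TC.M11C.Data
set_option autoImplicit false
set_option maxRecDepth 1000000

open Cfsg.Agent.Lib.Compute.ToddCoxeterCore Cfsg.Agent.Lib.Compute.ToddCoxeterPresented Cfsg.Agent.Lib.Compute.TCFast Cfsg.Agent.Lib.Compute.TCChain

namespace Cfsg.Agent.Lib.Compute.TC.M11C

theorem l1c0 : allFrom (lv1.chkPos evL1 (nat_lit 11)) (nat_lit 9) (nat_lit 0) = true := by decide +kernel

end Cfsg.Agent.Lib.Compute.TC.M11C
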