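-- Stabilizer chain for M11C: assembly.
import Cfsg.Agent.Lib.Compute.TC.M11C.L0C0
import Cfsg.Agent.Lib.Compute.TC.M11C.L1C0
import Cfsg.Agent.Lib.Compute.TC.M11C.L2C0
set_option autoImplicit false
set_option maxRecDepth 1000000

open Cfsg.Agent.Lib.Compute.ToddCoxeterCore Cfsg.Agent.Lib.Compute.ToddCoxeterPresented Cfsg.Agent.Lib.Compute.TCFast Cfsg.Agent.Lib.Compute.TCChain

namespace Cfsg.Agent.Lib.Compute.TC.M11C

theorem lv0ok : lv0.chk evL0 (nat_lit 11) = true :=
  Lvl.chk_of (by decide +kernel)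
    (allFrom_of_forall (by
      have h := allFrom_chain (allFrom_nil (lv0.chkPos evL0 (nat_lit 11)) (nat_lit 0)) l0c0 (c := 10) rfl
      simpa [lv0] using h))
    (by decide +kernel)

theorem lv1ok : lv1.chk evL1 (nat_lit 11) = true :=
  Lvl.chk_of (by decide +kernel)
    (allFrom_of_forall (by
      have h := allFrom_chain (allFrom_nil (lv1.chkPos evL1 (nat_lit 11)) (nat_lit 0)) l1c0 (c := 9) rfl
      simpa [lv1] using h))
    (by decide +kernel)

theorem lv2ok : lv2.chk evL2 (nat_lit 11) = true :=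
  Lvl.chk_of (by decide +kernel)
    (allFrom_of_forall (by
      have h := allFrom_chain (allFrom_nil (lv2.chkPos evL2 (nat_lit 11)) (nat_lit 0)) l2c0 (c := 8) rfl
      simpa [lv2] using h))
    (by decide +kernel)

theorem chainOK' : chainChk (nat_lit 11) ls evL0 = true :=
  chainChk_cons lv0ok (chainChk_cons lv1ok (chainChk_cons lv2ok (chainChk_nil)))

theorem chainOK : chainChk Cfsg.Agent.Lib.Compute.TC.M11A.cfg.N ls (evN (ev0 Cfsg.Agent.Lib.Compute.TC.M11A.cfg) next0) = true := by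
  rw [N_eq]
  exact chainOK'

end Cfsg.Agent.Lib.Compute.TC.M11C
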